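import Mathlib
import Cfsg.Agent.TitsThree.WittWeyl
import Cfsg.Agent.H619.Gow.SLNode

/-!
# The homomorphism `SL₂(F) → isometries` of a Witt frame (S4829, Row2, `q` even; helper221)

`Fr` any Witt frame, `x.1 ≠ y.1` : `phi Fr hfix h : SL₂(F) →* (V ≃ₗ[F] V)` with

* `phi_up` : `phi (up t) = Fr.X x y t`;
* `phi_lo` : `phi (lo t) = Fr.X (neg y) (neg x) t`;
* `phi_wS` : `phi (wS t) = nX Fr x y t`;
* `phi_hS` : `phi (hS d)` is diagonal on the frame.
-/

set_option autoImplicit false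
set_option linter.unusedSectionVars false

namespace Cfsg.Agent.H221.R2

open Cfsg.Agent.TitsThree Cfsg.Agent.ChevalleyStructure
open Cfsg.Agent.TitsThree.Siegel Cfsg.Agent.TitsThree.WittFrame Cfsg.Agent.TitsThree.WittWeyl
open Cfsg.Agent.ChevalleyStructure.SL2Hom (up lo mem_closure_SL2)
open Cfsg.Agent.Nodes.RGDFoldSL (wS hS coe_wS coe_hS)

local notation "SL2 " F => Matrix.SpecialLinearGroup (Fin 2) F

variable {F : Type*} [Field F] {V : Type*} [AddCommGroup V] [Module F V] {H : HForm F V} {ι : Type*} [DecidableEq ι]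
  (Fr : Frame H ι)

/-- the constant -/
def cc (x y : ι × Bool) : F := H.ε⁻¹ * Fr.η x * Fr.η y

theorem cc_ne (x y : ι × Bool) : cc Fr x y ≠ 0 :=
  mul_ne_zero (mul_ne_zero (inv_ne_zero H.ε_ne) (Fr.η_ne x)) (Fr.η_ne y)

theorem cc_neg (x y : ι × Bool) : H.ε⁻¹ * Fr.η (neg y) * Fr.η (neg x) = (cc Fr x y)⁻¹ := by
  have h1 := Fr.η_neg x
  have h2 := Fr.η_neg y
  have h3 := H.ε_ne
  have h4 := Fr.η_ne x
  have h5 := Fr.η_ne y
  rw [cc]
  have h6 : Fr.η (neg x) = H.ε * (Fr.η x)⁻¹ := by rw [← h1, mul_inv_cancel_right₀ h4]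
  have h7 : Fr.η (neg y) = H.ε * (Fr.η y)⁻¹ := by rw [← h2, mul_inv_cancel_right₀ h5]
  rw [h6, h7]
  field_simp

/-- `u` acts as the matrix `g` -/
structure Acts (x y : ι × Bool) (g : SL2 F) (u : V ≃ₗ[F] V) : Prop where
  ax : u (Fr.b x) = g.1 0 0 • Fr.b x + g.1 1 0 • Fr.b (neg y)
  any : u (Fr.b (neg y)) = g.1 0 1 • Fr.b x + g.1 1 1 • Fr.b (neg y)
  anx : u (Fr.b (neg x)) = H.σ (g.1 1 1) • Fr.b (neg x) - (cc Fr x y * H.σ (g.1 0 1)) • Fr.b y
  ay : u (Fr.b y) = H.σ (g.1 0 0) • Fr.b y - ((cc Fr x y)⁻¹ * H.σ (g.1 1 0)) • Fr.b (neg x)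
  az : ∀ z : ι × Bool, z.1 ≠ x.1 → z.1 ≠ y.1 → u (Fr.b z) = Fr.b z
  av : ∀ v ∈ Fr.V0, u v = v

variable {Fr}

namespace Acts

variable {x y : ι × Bool}

theorem one : Acts Fr x y 1 1 where
  ax := by simp
  any := by simp
  anx := by simp
  ay := by simp
  az z _ _ := rfl
  av v _ := rfl

theorem mul {g g' : SL2 F} {u u' : V ≃ₗ[F] V} (h : Acts Fr x y g u) (h' : Acts Fr x y g' u') :
    Acts Fr x y (g * g') (u * u') where
  ax := by
    rw [mul_apply', h'.ax, map_add, map_smul, map_smul, h.ax, h.any, Matrix.SpecialLinearGroup.coe_mul, Matrix.mul_apply,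
      Matrix.mul_apply, Fin.sum_univ_two, Fin.sum_univ_two]
    module
  any := by
    rw [mul_apply', h'.any, map_add, map_smul, map_smul, h.ax, h.any, Matrix.SpecialLinearGroup.coe_mul, Matrix.mul_apply,
      Matrix.mul_apply, Fin.sum_univ_two, Fin.sum_univ_two]
    module
  anx := by
    rw [mul_apply', h'.anx, map_sub, map_smul, map_smul, h.anx, h.ay, Matrix.SpecialLinearGroup.coe_mul, Matrix.mul_apply,
      Matrix.mul_apply, Fin.sum_univ_two, Fin.sum_univ_two, map_add, map_mul, map_mul, map_add, map_mul, map_mul]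
    have h1 := cc_ne Fr x y
    match_scalars <;> field_simp <;> ring
  ay := by
    rw [mul_apply', h'.ay, map_sub, map_smul, map_smul, h.anx, h.ay, Matrix.SpecialLinearGroup.coe_mul, Matrix.mul_apply,
      Matrix.mul_apply, Fin.sum_univ_two, Fin.sum_univ_two, map_add, map_mul, map_mul, map_add, map_mul, map_mul]
    have h1 := cc_ne Fr x y
    match_scalars <;> field_simp <;> ring
  az z h1 h2 := by rw [mul_apply', h'.az z h1 h2, h.az z h1 h2]
  av v hv := by rw [mul_apply', h'.av v hv, h.av v hv]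

theorem inv {g : SL2 F} {u : V ≃ₗ[F] V} (h : Acts Fr x y g u) : Acts Fr x y g⁻¹ u⁻¹ := by
  have hd : g.1 0 0 * g.1 1 1 - g.1 0 1 * g.1 1 0 = 1 := by rw [← Matrix.det_fin_two]; exact g.2
  have hd' : H.σ (g.1 0 0) * H.σ (g.1 1 1) - H.σ (g.1 0 1) * H.σ (g.1 1 0) = 1 := by
    rw [← map_mul, ← map_mul, ← map_sub, hd, map_one]
  have e : (g⁻¹ : SL2 F).1 = !![g.1 1 1, -g.1 0 1; -g.1 1 0, g.1 0 0] := by
    rw [Matrix.SpecialLinearGroup.coe_inv, Matrix.adjugate_fin_two]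
  have e00 : (g⁻¹ : SL2 F).1 0 0 = g.1 1 1 := by rw [e]; rfl
  have e01 : (g⁻¹ : SL2 F).1 0 1 = -g.1 0 1 := by rw [e]; rfl
  have e10 : (g⁻¹ : SL2 F).1 1 0 = -g.1 1 0 := by rw [e]; rfl
  have e11 : (g⁻¹ : SL2 F).1 1 1 = g.1 0 0 := by rw [e]; rfl
  have key : ∀ v w, u w = v → u⁻¹ v = w := fun v w hvw => by rw [← hvw]; exact u.symm_apply_apply w
  have h1 := cc_ne Fr x y
  refine ⟨key _ _ ?_, key _ _ ?_, key _ _ ?_, key _ _ ?_, fun z h1 h2 => key _ _ (h.az z h1 h2), fun v hv => key _ _ (h.av v hv)⟩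
  · rw [e00, e10, map_add, map_smul, map_smul, h.ax, h.any]
    match_scalars
    · linear_combination hd
    · ring
  · rw [e01, e11, map_add, map_smul, map_smul, h.ax, h.any]
    match_scalars
    · ring
    · linear_combination hd
  · rw [e01, e11, map_sub, map_smul, map_smul, h.anx, h.ay, map_neg]
    match_scalars
    · field_simp
      linear_combination hd'
    · ring
  · rw [e00, e10, map_sub, map_smul, map_smul, h.anx, h.ay, map_neg]
    match_scalars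
    · field_simp
      linear_combination hd'
    · ring

theorem up (h : x.1 ≠ y.1) (t : F) : Acts Fr x y (SL2Hom.up t) (Fr.X x y t) where
  ax := by
    rw [X_apply_of_ne Fr h (ne_neg_self x) (fun e => h ((congrArg Prod.fst e).trans rfl))]
    show _ = (1 : F) • _ + (0 : F) • _
    rw [one_smul, zero_smul, add_zero]
  any := by
    rw [X_apply_neg Fr h]
    show _ = t • _ + (1 : F) • _
    rw [one_smul, add_comm]
  anx := by
    rw [X_apply_neg' Fr h]
    show _ = H.σ 1 • _ - (cc Fr x y * H.σ t) • _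
    rw [map_one, one_smul, cc]
  ay := by
    rw [X_apply_of_ne Fr h (fun e => h ((congrArg Prod.fst e).symm.trans rfl)) (ne_neg_self y)]
    show _ = H.σ 1 • _ - ((cc Fr x y)⁻¹ * H.σ 0) • _
    rw [map_one, one_smul, map_zero, mul_zero, zero_smul, sub_zero]
  az z h1 h2 := X_apply_of_ne Fr h (fun e => h1 ((congrArg Prod.fst e).trans rfl)) (fun e => h2 ((congrArg Prod.fst e).trans rfl)) t
  av v hv := X_apply_V0 Fr h hv t

theorem lo (h : x.1 ≠ y.1) (t : F) : Acts Fr x y (SL2Hom.lo t) (Fr.X (neg y) (neg x) t) where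
  ax := by
    have h1 := X_apply_neg Fr (x := neg y) (y := neg x) h.symm t
    rw [Cfsg.Agent.TitsThree.WittFrame.neg_neg] at h1
    rw [h1]
    show _ = (1 : F) • _ + t • _
    rw [one_smul]
  any := by
    rw [X_apply_of_ne Fr (x := neg y) (y := neg x) h.symm (ne_neg_self _) (fun e => h ((congrArg Prod.fst e).symm.trans rfl))]
    show _ = (0 : F) • _ + (1 : F) • _
    rw [one_smul, zero_smul, zero_add]
  anx := by
    rw [X_apply_of_ne Fr (x := neg y) (y := neg x) (z := neg x) h.symm (fun e => h ((congrArg Prod.fst e).trans rfl))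
      (ne_neg_self (neg x))]
    show _ = H.σ 1 • _ - (cc Fr x y * H.σ 0) • _
    rw [map_one, one_smul, map_zero, mul_zero, zero_smul, sub_zero]
  ay := by
    have h1 := X_apply_neg' Fr (x := neg y) (y := neg x) h.symm t
    rw [Cfsg.Agent.TitsThree.WittFrame.neg_neg, cc_neg] at h1
    rw [h1]
    show _ = H.σ 1 • _ - ((cc Fr x y)⁻¹ * H.σ t) • _
    rw [map_one, one_smul]
  az z h1 h2 := X_apply_of_ne Fr (x := neg y) (y := neg x) h.symm (fun e => h2 ((congrArg Prod.fst e).trans rfl))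
    (fun e => h1 ((congrArg Prod.fst e).trans rfl)) t
  av v hv := X_apply_V0 Fr (x := neg y) (y := neg x) h.symm hv t

end Acts

/-- the graph of the homomorphism -/
def gr (Fr : Frame H ι) (x y : ι × Bool) : Subgroup ((SL2 F) × (V ≃ₗ[F] V)) where
  carrier := {q | Acts Fr x y q.1 q.2}
  one_mem' := Acts.one
  mul_mem' h h' := Acts.mul h h'
  inv_mem' h := Acts.inv h

theorem eq_one_of_acts (hfix : ∀ u : V ≃ₗ[F] V, (∀ z, u (Fr.b z) = Fr.b z) → (∀ v ∈ Fr.V0, u v = v) → u = 1)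
    {x y : ι × Bool} {u : V ≃ₗ[F] V} (h : Acts Fr x y 1 u) : u = 1 := by
  refine hfix u (fun z => ?_) h.av
  have e : ∀ a b : ι × Bool, a.1 = b.1 → a = b ∨ a = neg b := by
    rintro ⟨a, s⟩ ⟨b, t⟩ rfl
    cases s <;> cases t <;> simp [neg]
  have m00 : (1 : SL2 F).1 0 0 = 1 := rfl
  have m11 : (1 : SL2 F).1 1 1 = 1 := rfl
  have m01 : (1 : SL2 F).1 0 1 = 0 := rfl
  have m10 : (1 : SL2 F).1 1 0 = 0 := rfl
  by_cases h1 : z.1 = x.1
  · rcases e z x h1 with rfl | rfl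
    · rw [h.ax, m00, m10, one_smul, zero_smul, add_zero]
    · rw [h.anx, m11, m01, map_one, map_zero, one_smul, mul_zero, zero_smul, sub_zero]
  by_cases h2 : z.1 = y.1
  · rcases e z y h2 with rfl | rfl
    · rw [h.ay, m00, m10, map_one, map_zero, one_smul, mul_zero, zero_smul, sub_zero]
    · rw [h.any, m11, m01, one_smul, zero_smul, zero_add]
  exact h.az z h1 h2

/-- the projection of the graph -/
noncomputable def pr (Fr : Frame H ι) (x y : ι × Bool) : ↥(gr Fr x y) →* SL2 F :=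
  (MonoidHom.fst _ _).comp (gr Fr x y).subtype

theorem pr_bij (hfix : ∀ u : V ≃ₗ[F] V, (∀ z, u (Fr.b z) = Fr.b z) → (∀ v ∈ Fr.V0, u v = v) → u = 1)
    {x y : ι × Bool} (h : x.1 ≠ y.1) : Function.Bijective (pr Fr x y) := by
  constructor
  · rw [injective_iff_map_eq_one]
    rintro ⟨⟨g, u⟩, hg⟩ (h1 : g = 1)
    subst h1
    have h2 := eq_one_of_acts hfix (u := u) hg
    exact Subtype.ext (Prod.ext rfl h2)
  · intro g
    have h1 : Subgroup.closure (Set.range (SL2Hom.up (F := F)) ∪ Set.range (SL2Hom.lo (F := F))) ≤ (pr Fr x y).range := by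
      rw [Subgroup.closure_le]
      rintro _ (⟨t, rfl⟩ | ⟨t, rfl⟩)
      · exact ⟨⟨(SL2Hom.up t, Fr.X x y t), Acts.up h t⟩, rfl⟩
      · exact ⟨⟨(SL2Hom.lo t, Fr.X (neg y) (neg x) t), Acts.lo h t⟩, rfl⟩
    exact h1 (mem_closure_SL2 g)

/-- **the homomorphism** -/
noncomputable def phi (Fr : Frame H ι) (hfix : ∀ u : V ≃ₗ[F] V, (∀ z, u (Fr.b z) = Fr.b z) → (∀ v ∈ Fr.V0, u v = v) → u = 1)
    {x y : ι × Bool} (h : x.1 ≠ y.1) : (SL2 F) →* (V ≃ₗ[F] V) :=
  ((MonoidHom.snd _ _).comp (gr Fr x y).subtype).comp (MulEquiv.ofBijective (pr Fr x y) (pr_bij hfix h)).symm.toMonoidHom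

section

variable (hfix : ∀ u : V ≃ₗ[F] V, (∀ z, u (Fr.b z) = Fr.b z) → (∀ v ∈ Fr.V0, u v = v) → u = 1)
  {x y : ι × Bool} (h : x.1 ≠ y.1)

theorem phi_eq {g : SL2 F} {u : V ≃ₗ[F] V} (hu : Acts Fr x y g u) : phi Fr hfix h g = u := by
  have h1 : (MulEquiv.ofBijective (pr Fr x y) (pr_bij hfix h)).symm g = ⟨(g, u), hu⟩ := by
    rw [MulEquiv.symm_apply_eq]
    rfl
  show ((MulEquiv.ofBijective (pr Fr x y) (pr_bij hfix h)).symm g).1.2 = u
  rw [h1]

theorem phi_acts (g : SL2 F) : Acts Fr x y g (phi Fr hfix h g) := by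
  obtain ⟨⟨⟨g', u⟩, hg⟩, e⟩ := (pr_bij hfix h).2 g
  have e' : g' = g := e
  subst e'
  rw [phi_eq hfix h hg]
  exact hg

theorem phi_up (t : F) : phi Fr hfix h (SL2Hom.up t) = Fr.X x y t := phi_eq hfix h (Acts.up h t)

theorem phi_lo (t : F) : phi Fr hfix h (SL2Hom.lo t) = Fr.X (neg y) (neg x) t := phi_eq hfix h (Acts.lo h t)

theorem phi_wS (t : F) : phi Fr hfix h (wS t) = nX Fr x y t := by
  rw [wS, map_mul, map_mul, phi_up, phi_lo, nX, mul_assoc]

theorem phi_hS {d : F} (hd : d ≠ 0) (z : ι × Bool) : ∃ l : F, l ≠ 0 ∧ phi Fr hfix h (hS d) (Fr.b z) = l • Fr.b z := by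
  have h1 := phi_acts hfix h (hS d)
  have m := coe_hS hd
  have m00 : (hS d : SL2 F).1 0 0 = d := by rw [m]; rfl
  have m11 : (hS d : SL2 F).1 1 1 = d⁻¹ := by rw [m]; rfl
  have m01 : (hS d : SL2 F).1 0 1 = 0 := by rw [m]; rfl
  have m10 : (hS d : SL2 F).1 1 0 = 0 := by rw [m]; rfl
  have e : ∀ a b : ι × Bool, a.1 = b.1 → a = b ∨ a = neg b := by
    rintro ⟨a, s⟩ ⟨b, t⟩ rfl
    cases s <;> cases t <;> simp [neg]
  have hs : ∀ {r : F}, r ≠ 0 → H.σ r ≠ 0 := fun hr => (map_ne_zero H.σ).2 hr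
  by_cases h2 : z.1 = x.1
  · rcases e z x h2 with rfl | rfl
    · exact ⟨d, hd, by rw [h1.ax, m00, m10, zero_smul, add_zero]⟩
    · exact ⟨H.σ d⁻¹, hs (inv_ne_zero hd), by rw [h1.anx, m11, m01, map_zero, mul_zero, zero_smul, sub_zero]⟩
  by_cases h3 : z.1 = y.1
  · rcases e z y h3 with rfl | rfl
    · exact ⟨H.σ d, hs hd, by rw [h1.ay, m00, m10, map_zero, mul_zero, zero_smul, sub_zero]⟩
    · exact ⟨d⁻¹, inv_ne_zero hd, by rw [h1.any, m11, m01, zero_smul, zero_add]⟩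
  exact ⟨1, one_ne_zero, by rw [h1.az z h2 h3, one_smul]⟩

theorem phi_mem {G0 : Subgroup (V ≃ₗ[F] V)} (h1 : ∀ t, Fr.X x y t ∈ G0) (h2 : ∀ t, Fr.X (neg y) (neg x) t ∈ G0)
    (g : SL2 F) : phi Fr hfix h g ∈ G0 := by
  have h3 : Subgroup.closure (Set.range (SL2Hom.up (F := F)) ∪ Set.range (SL2Hom.lo (F := F))) ≤
      G0.comap (phi Fr hfix h) := by
    rw [Subgroup.closure_le]
    rintro _ (⟨t, rfl⟩ | ⟨t, rfl⟩)
    · exact Subgroup.mem_comap.2 (by rw [phi_up]; exact h1 t)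
    · exact Subgroup.mem_comap.2 (by rw [phi_lo]; exact h2 t)
  exact h3 (mem_closure_SL2 g)

end

end Cfsg.Agent.H221.R2
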